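import Cfsg.Agent.Lib.KerFit.Main
import Cfsg.Agent.Lib.Char.Burnside

/-!
# Nilpotent length and the number of character degrees
-/

set_option autoImplicit false

namespace Cfsg.Agent.Lib.KerFit.Chain

open Cfsg Module
open Cfsg.Agent.Lib.Char.Basic Cfsg.Agent.Lib.Char.Ortho Cfsg.Agent.Lib.Char.Complete
open Cfsg.Agent.Lib.Char.Degree Cfsg.Agent.Lib.Char.Linear
open Cfsg.Agent.Lib.Core.Basic

universe u

/-- The set of character degrees as a type. -/
abbrev DegSet (G : Type u) [Group G] : Type :=
  {d : ℕ // ∃ χ : IrrCharacter G, charDegree (χ : G → ℂ) = d}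

instance finite_degSet (G : Type u) [Group G] [Finite G] : Finite (DegSet G) := by
  have := finite_irrCharacter (G := G)
  refine Finite.of_surjective
    (fun χ : IrrCharacter G => (⟨charDegree (χ : G → ℂ), χ, rfl⟩ : DegSet G)) ?_
  rintro ⟨d, χ, rfl⟩
  exact ⟨χ, rfl⟩

/-- The quotient by the Fitting subgroup has fewer degrees, unless `G` is nilpotent. -/
theorem card_degSet_quotient_lt {G : Type u} [Group G] [Finite G] (hsolv : Group.IsSolvable G)
    (hF : fittingSubgroup G ≠ ⊤) {A : Subgroup G} [hA : A.Normal] (hAF : A = fittingSubgroup G) :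
    Nat.card (DegSet (G ⧸ A)) < Nat.card (DegSet G) := by
  classical
  letI : Fintype (G ⧸ A) := Fintype.ofFinite _
  have := finite_irrCharacter (G := G ⧸ A)
  let π := QuotientGroup.mk' A
  have hπ : Function.Surjective π := QuotientGroup.mk'_surjective A
  let inf : IrrCharacter (G ⧸ A) → IrrCharacter G := fun φ =>
    ⟨(φ : G ⧸ A → ℂ) ∘ π, isIrrCharacter_comp π hπ φ.2⟩
  have hdeg : ∀ φ : IrrCharacter (G ⧸ A), charDegree ((inf φ : IrrCharacter G) : G → ℂ) =
      charDegree (φ : G ⧸ A → ℂ) := by
    intro φ
    simp only [charDegree, inf, Function.comp_apply, map_one]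
  haveI : Nonempty (IrrCharacter (G ⧸ A)) :=
    ⟨⟨fun _ => 1, Cfsg.Agent.Lib.Char.Burnside.isIrrCharacter_one⟩⟩
  obtain ⟨φ₀, hφ₀⟩ := Finite.exists_max (fun φ : IrrCharacter (G ⧸ A) => charDegree (φ : G ⧸ A → ℂ))
  set χ := inf φ₀ with hχ
  have hχc := isCharacter_of_isIrrCharacter χ.2
  have hAK : A ≤ charKer hχc := by
    intro a ha
    change (χ : G → ℂ) a = (χ : G → ℂ) 1
    have h1 : π a = 1 := (QuotientGroup.eq_one_iff a).mpr ha
    simp only [hχ, inf, Function.comp_apply, h1, map_one]
  have hcase : ¬ charKer hχc ≤ fittingSubgroup G ∨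
      (charKer hχc = fittingSubgroup G ∧ Group.IsSolvable (G ⧸ charKer hχc) ∧ charKer hχc ≠ ⊤) := by
    by_cases hle : charKer hχc ≤ fittingSubgroup G
    · right
      have heq : charKer hχc = fittingSubgroup G := le_antisymm hle (hAF ▸ hAK)
      refine ⟨heq, inferInstance, heq ▸ hF⟩
    · exact Or.inl hle
  obtain ⟨ψ, hψ, -⟩ := Cfsg.Agent.Lib.KerFit.Main.exists_larger_degree_smaller_kernel χ
    (charKer hχc) (fun g => Iff.rfl) hcase
  let f : DegSet (G ⧸ A) → DegSet G := fun d => ⟨d.1, by
    obtain ⟨φ, hφ⟩ := d.2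
    exact ⟨inf φ, (hdeg φ).trans hφ⟩⟩
  have hf : Function.Injective f := by
    intro a b hab
    have h1 : (f a).1 = (f b).1 := congrArg Subtype.val hab
    exact Subtype.ext h1
  letI : Fintype (DegSet (G ⧸ A)) := Fintype.ofFinite _
  letI : Fintype (DegSet G) := Fintype.ofFinite _
  rw [Nat.card_eq_fintype_card, Nat.card_eq_fintype_card]
  refine Fintype.card_lt_of_injective_of_notMem f hf (b := ⟨charDegree (ψ : G → ℂ), ψ, rfl⟩) ?_
  rintro ⟨⟨d, φ, rfl⟩, hd⟩
  have h1 : charDegree (φ : G ⧸ A → ℂ) = charDegree (ψ : G → ℂ) := congrArg Subtype.val hd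
  have h2 := hφ₀ φ
  have h3 : charDegree (χ : G → ℂ) = charDegree (φ₀ : G ⧸ A → ℂ) := hdeg φ₀
  omega

/-- Nilpotency of a section passes along the preimages under a surjection. -/
theorem nilpotent_comap {G H : Type*} [Group G] [Group H] (π : G →* H)
    (hπ : Function.Surjective π) (A B : Subgroup H) (hA : A.Normal)
    (hnil : ∀ h : (A.subgroupOf B).Normal, Group.IsNilpotent (↥B ⧸ A.subgroupOf B))
    (h : ((A.comap π).subgroupOf (B.comap π)).Normal) :
    Group.IsNilpotent (↥(B.comap π) ⧸ (A.comap π).subgroupOf (B.comap π)) := by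
  have hN : (A.subgroupOf B).Normal := Subgroup.normal_subgroupOf
  have hn := hnil hN
  let f : ↥(B.comap π) →* ↥B ⧸ A.subgroupOf B :=
    (QuotientGroup.mk' (A.subgroupOf B)).comp (π.subgroupComap B)
  have hf : Function.Surjective f :=
    (QuotientGroup.mk'_surjective _).comp (π.subgroupComap_surjective_of_surjective B hπ)
  have hker : (A.comap π).subgroupOf (B.comap π) = f.ker := by
    ext x
    rw [MonoidHom.mem_ker, Subgroup.mem_subgroupOf, Subgroup.mem_comap]
    change _ ↔ ((π.subgroupComap B x : B) : ↥B ⧸ A.subgroupOf B) = 1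
    rw [QuotientGroup.eq_one_iff, Subgroup.mem_subgroupOf]
    rfl
  let e : (↥(B.comap π) ⧸ (A.comap π).subgroupOf (B.comap π)) ≃* (↥(B.comap π) ⧸ f.ker) :=
    QuotientGroup.quotientMulEquivOfEq hker
  have e2 := QuotientGroup.quotientKerEquivOfSurjective f hf
  exact Group.nilpotent_of_mulEquiv (e.trans e2).symm

/-- The chain of normal subgroups with nilpotent sections. -/
theorem exists_chain : ∀ (m : ℕ) (G : Type u) [Group G] [Finite G], Group.IsSolvable G →
    Nat.card (DegSet G) ≤ m →
    ∃ N : ℕ → Subgroup G, N 0 = ⊥ ∧ (∀ i, m ≤ i → N i = ⊤) ∧ Monotone N ∧ (∀ i, (N i).Normal) ∧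
      ∀ i, ∀ h : ((N i).subgroupOf (N (i + 1))).Normal,
        Group.IsNilpotent (↥(N (i + 1)) ⧸ (N i).subgroupOf (N (i + 1))) := by
  intro m
  induction m with
  | zero =>
    intro G _ _ _ hc
    exfalso
    letI : Fintype G := Fintype.ofFinite _
    have hne : Nonempty (DegSet G) :=
      ⟨⟨_, ⟨fun _ => 1, Cfsg.Agent.Lib.Char.Burnside.isIrrCharacter_one⟩, rfl⟩⟩
    have : 0 < Nat.card (DegSet G) := Nat.card_pos
    omega
  | succ m ih =>
    intro G _ _ hsolv hc
    have hFn : (fittingSubgroup G).Normal := fittingSubgroup_normal'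
    by_cases hF : fittingSubgroup G = ⊤
    · -- nilpotent
      have hnil : Group.IsNilpotent G := fittingSubgroup_eq_top_iff.mp hF
      refine ⟨fun i => if i = 0 then ⊥ else ⊤, by simp, ?_, ?_, ?_, ?_⟩
      · intro i hi
        have : i ≠ 0 := by omega
        simp [this]
      · apply monotone_nat_of_le_succ
        intro i
        by_cases h0 : i = 0
        · simp [h0]
        · simp [h0]
      · intro i
        by_cases h0 : i = 0
        · simp only [h0, if_true]
          infer_instance
        · simp only [h0, if_false]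
          infer_instance
      · intro i h
        have hB : Group.IsNilpotent ↥(if i + 1 = 0 then (⊥ : Subgroup G) else ⊤) := inferInstance
        exact Group.nilpotent_quotient_of_nilpotent _
    · obtain ⟨N', h0, htop, hmono, hnorm, hnil⟩ := ih (G ⧸ fittingSubgroup G) inferInstance
        (by
          have := card_degSet_quotient_lt hsolv hF (A := fittingSubgroup G) rfl
          omega)
      let π := QuotientGroup.mk' (fittingSubgroup G)
      have hπ : Function.Surjective π := QuotientGroup.mk'_surjective _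
      let N : ℕ → Subgroup G := fun i => match i with
        | 0 => ⊥
        | (j + 1) => (N' j).comap π
      have hN1 : N 1 = fittingSubgroup G := by
        change (N' 0).comap π = _
        rw [h0]
        ext x
        rw [Subgroup.mem_comap, Subgroup.mem_bot]
        exact QuotientGroup.eq_one_iff x
      refine ⟨N, rfl, ?_, ?_, ?_, ?_⟩
      · intro i hi
        obtain ⟨j, rfl⟩ : ∃ j, i = j + 1 := ⟨i - 1, by omega⟩
        change (N' j).comap π = ⊤
        rw [htop j (by omega), Subgroup.comap_top]
      · apply monotone_nat_of_le_succ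
        intro i
        cases i with
        | zero => exact bot_le
        | succ j => exact Subgroup.comap_mono (hmono (Nat.le_succ j))
      · intro i
        cases i with
        | zero => exact Subgroup.normal_bot
        | succ j => exact Subgroup.Normal.comap (hnorm j) π
      · intro i h
        cases i with
        | zero =>
          have hB : Group.IsNilpotent ↥(N 1) := by
            rw [hN1]
            exact fittingSubgroup_isNilpotent
          exact Group.nilpotent_quotient_of_nilpotent _
        | succ j =>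
          exact nilpotent_comap π hπ (N' j) (N' (j + 1)) (hnorm j) (hnil j) h

end Cfsg.Agent.Lib.KerFit.Chain
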